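import Cfsg.Agent.LAE62.ChermakDelgado
import Cfsg.Agent.CF.Elementary
import Cfsg.Prelude.Def_ConjugacyFunctors

/-!
The functor generated by the abelian subgroups in the top of the Chermak–Delgado lattice, and the
lattice computed inside a subgroup `J`.
-/

set_option autoImplicit false
set_option linter.style.haveILetI false

open scoped commutatorElement

namespace Cfsg.Agent.CF.CDQuad

open Cfsg.Agent.Fusion

universe u

variable {X : Type u} [Group X]

/-- The join of the abelian subgroups `A` for which `|A| |C(A)|` is largest. -/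
def cdAb : ∀ (Q : Type u) [Group Q], Subgroup Q := fun Q _ =>
  sSup {A : Subgroup Q | IsMulCommutative A ∧ Cfsg.IsCentralizerLarge A}

theorem comm_map {Y : Type*} [Group Y] (f : X →* Y) {H : Subgroup X} (h : IsMulCommutative H) :
    IsMulCommutative (H.map f) := by
  refine ⟨⟨?_⟩⟩
  rintro ⟨_, a, ha, rfl⟩ ⟨_, b, hb, rfl⟩
  exact Subtype.ext (show f a * f b = f b * f a by
    rw [← map_mul, ← map_mul, show a * b = b * a from congrArg Subtype.val (h.1.1 ⟨a, ha⟩ ⟨b, hb⟩)])

theorem isCentralizerLarge_map {R : Type u} [Group R] [Finite X] (φ : X ≃* R) {A : Subgroup X}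
    (h : Cfsg.IsCentralizerLarge A) : Cfsg.IsCentralizerLarge (A.map φ.toMonoidHom) := by
  haveI : Finite R := Finite.of_equiv X φ.toEquiv
  have hm : ∀ (Y Z : Type u) [Group Y] [Group Z] (ψ : Y ≃* Z) (B : Subgroup Y),
      Nat.card (B.map ψ.toMonoidHom) * Nat.card (Subgroup.centralizer (B.map ψ.toMonoidHom : Set Z)) =
        Nat.card B * Nat.card (Subgroup.centralizer (B : Set Y)) := by
    intro Y Z _ _ ψ B
    have e : Subgroup.centralizer (B.map ψ.toMonoidHom : Set Z) =
        (Subgroup.centralizer (B : Set Y)).map ψ.toMonoidHom := by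
      ext z
      constructor
      · intro hz
        refine ⟨ψ.symm z, Subgroup.mem_centralizer_iff.2 fun b hb => ψ.injective ?_,
          ψ.apply_symm_apply z⟩
        rw [map_mul, map_mul, ψ.apply_symm_apply]
        exact Subgroup.mem_centralizer_iff.1 hz _ ⟨b, hb, rfl⟩
      · rintro ⟨y, hy, rfl⟩
        rw [Subgroup.mem_centralizer_iff]
        rintro _ ⟨b, hb, rfl⟩
        rw [← map_mul, ← map_mul, Subgroup.mem_centralizer_iff.1 hy b hb]
    rw [e, Subgroup.card_map_of_injective ψ.injective, Subgroup.card_map_of_injective ψ.injective]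
  refine LAE62.isLarge_of_le (le_of_eq ?_)
  show _ = LAE62.meas _
  rw [LAE62.meas, hm X R φ A, h]
  refine le_antisymm ?_ ?_
  · obtain ⟨B, hB⟩ := LAE62.exists_large (G := R)
    rw [← hB, ← hm R X φ.symm B]
    exact LAE62.meas_le_max _
  · obtain ⟨B, hB⟩ := LAE62.exists_large (G := X)
    rw [← hB, ← hm X R φ B]
    exact LAE62.meas_le_max _

theorem cdAb_charP (p : ℕ) [Fact p.Prime] : Cfsg.IsCharPFunctor.{u} p cdAb := by
  refine ⟨fun Q _ _ hQ hne hb => ?_, fun Q R _ _ _ _ φ => ?_⟩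
  · haveI := hne
    haveI := hQ.center_nontrivial
    obtain ⟨B, hB⟩ := LAE62.exists_large (G := Q)
    obtain ⟨hC, -⟩ := LAE62.large_centralizer hB
    obtain ⟨-, hA, -⟩ := LAE62.large_lattice hB hC
    set A := B ⊓ Subgroup.centralizer (B : Set Q) with hAdef
    have hAc : IsMulCommutative A := LAE62.isMulCommutative_of_le_centralizer
      (inf_le_right.trans (LAE62.centralizer_anti inf_le_left))
    have hA0 : A = ⊥ := le_bot_iff.1 ((le_sSup (show A ∈ {A : Subgroup Q | IsMulCommutative A ∧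
      Cfsg.IsCentralizerLarge A} from ⟨hAc, hA⟩)).trans hb.le)
    have h1 : Nat.card Q = Cfsg.maxCentralizerProduct Q := by
      rw [← hA, hA0, Subgroup.card_bot, one_mul]
      rw [show Subgroup.centralizer ((⊥ : Subgroup Q) : Set Q) = ⊤ from top_le_iff.1 fun x _ =>
        Subgroup.mem_centralizer_iff.2 fun y hy => by
          rw [Subgroup.mem_bot.1 hy, one_mul, mul_one], Subgroup.card_top]
    have h2 := LAE62.meas_le_max (G := Q) (Subgroup.center Q)
    rw [LAE62.meas, ← h1, show Subgroup.centralizer ((Subgroup.center Q : Subgroup Q) : Set Q) = ⊤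
      from top_le_iff.1 fun x _ => Subgroup.mem_centralizer_iff.2 fun z hz =>
        (Subgroup.mem_center_iff.1 hz x).symm, Subgroup.card_top] at h2
    have h3 : 1 < Nat.card (Subgroup.center Q) := Finite.one_lt_card
    have h4 : Nat.card Q < Nat.card (Subgroup.center Q) * Nat.card Q :=
      lt_mul_left Nat.card_pos h3
    omega
  · haveI : Finite R := Finite.of_equiv Q φ.toEquiv
    show (sSup _ : Subgroup Q).map φ.toMonoidHom = sSup _
    refine le_antisymm ?_ (sSup_le ?_)
    · rw [Subgroup.map_le_iff_le_comap]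
      refine sSup_le fun A hA => Subgroup.map_le_iff_le_comap.1 (le_sSup ?_)
      exact ⟨comm_map _ hA.1, isCentralizerLarge_map φ hA.2⟩
    · rintro A ⟨hAc, hA⟩
      have e : A = (A.map φ.symm.toMonoidHom).map φ.toMonoidHom := by
        rw [Subgroup.map_map]
        conv_lhs => rw [← Subgroup.map_id A]
        congr 1
        ext x; simp
      rw [e]
      exact Subgroup.map_mono (le_sSup ⟨comm_map _ hAc, isCentralizerLarge_map φ.symm hA⟩)

/-- `|R| |C_J(R)|`. -/
noncomputable def mJ (J R : Subgroup X) : ℕ :=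
  Nat.card R * Nat.card ↥(J ⊓ Subgroup.centralizer (R : Set X))

theorem centralizer_subgroupOf {J R : Subgroup X} (h : R ≤ J) :
    Subgroup.centralizer (R.subgroupOf J : Set J) =
      (J ⊓ Subgroup.centralizer (R : Set X)).subgroupOf J := by
  ext x
  simp only [Subgroup.mem_centralizer_iff, Subgroup.mem_subgroupOf, SetLike.mem_coe,
    Subgroup.mem_inf]
  exact ⟨fun hx => ⟨x.2, fun r hr => congrArg Subtype.val (hx ⟨r, h hr⟩ hr)⟩,
    fun hx r hr => Subtype.ext (hx.2 r hr)⟩

theorem card_subgroupOf {J R : Subgroup X} (h : R ≤ J) : Nat.card (R.subgroupOf J) = Nat.card R :=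
  Nat.card_congr (Subgroup.subgroupOfEquivOfLe h).toEquiv

theorem meas_subgroupOf {J R : Subgroup X} (h : R ≤ J) : LAE62.meas (R.subgroupOf J) = mJ J R := by
  rw [LAE62.meas, centralizer_subgroupOf h, card_subgroupOf h, card_subgroupOf inf_le_left, mJ]

theorem mJ_le [Finite X] {J R : Subgroup X} (h : R ≤ J) : mJ J R ≤ Cfsg.maxCentralizerProduct J :=
  meas_subgroupOf h ▸ LAE62.meas_le_max _

theorem isLarge_iff [Finite X] {J R : Subgroup X} (h : R ≤ J) :
    Cfsg.IsCentralizerLarge (R.subgroupOf J) ↔ Cfsg.maxCentralizerProduct J ≤ mJ J R := by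
  rw [← meas_subgroupOf h]
  exact ⟨fun hh => hh.ge, LAE62.isLarge_of_le⟩

theorem induced_cdAb [Finite X] (J : Subgroup X) :
    Cfsg.inducedFunctor cdAb J =
      sSup {A : Subgroup X | A ≤ J ∧ IsMulCommutative A ∧ Cfsg.maxCentralizerProduct J ≤ mJ J A} := by
  show (sSup _ : Subgroup J).map J.subtype = _
  refine le_antisymm ?_ (sSup_le ?_)
  · rw [Subgroup.map_le_iff_le_comap]
    refine sSup_le fun A hA => Subgroup.map_le_iff_le_comap.1 (le_sSup ⟨Subgroup.map_subtype_le A,
      comm_map _ hA.1, ?_⟩)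
    rw [← isLarge_iff (Subgroup.map_subtype_le A),
      show (A.map J.subtype).subgroupOf J = A from
        Subgroup.comap_map_eq_self_of_injective J.subtype_injective A]
    exact hA.2
  · rintro A ⟨hAJ, hAc, hA⟩
    rw [← Subgroup.map_subgroupOf_eq_of_le hAJ]
    refine Subgroup.map_mono (le_sSup ⟨⟨⟨fun a b => Subtype.ext (Subtype.ext ?_)⟩⟩,
      (isLarge_iff hAJ).2 hA⟩)
    show ((a : J) : X) * ((b : J) : X) = ((b : J) : X) * ((a : J) : X)
    exact congrArg Subtype.val (hAc.1.1 (⟨((a : J) : X), a.2⟩ : A) (⟨((b : J) : X), b.2⟩ : A))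

/-- The lattice inside `J`. -/
theorem lattice_mem [Finite X] {J R R' : Subgroup X} (h : R ≤ J) (h' : R' ≤ J)
    (hR : Cfsg.maxCentralizerProduct J ≤ mJ J R) (hR' : Cfsg.maxCentralizerProduct J ≤ mJ J R') :
    ∀ x ∈ J, (∀ d ∈ R ⊓ R', d * x = x * d) → ∃ c ∈ J ⊓ Subgroup.centralizer (R : Set X),
      ∃ c' ∈ J ⊓ Subgroup.centralizer (R' : Set X), c * c' = x := by
  obtain ⟨-, -, -, hC, hP⟩ := LAE62.large_lattice ((isLarge_iff h).2 hR) ((isLarge_iff h').2 hR')
  intro x hxJ hx
  have hmem : (⟨x, hxJ⟩ : J) ∈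
      Subgroup.centralizer ((R.subgroupOf J ⊓ R'.subgroupOf J : Subgroup J) : Set J) :=
    Subgroup.mem_centralizer_iff.2 fun d hd => Subtype.ext (hx d hd)
  rw [hC] at hmem
  obtain ⟨c, hc, c', hc', he⟩ := LAE62.sup_mul_subset hP hmem
  rw [centralizer_subgroupOf h] at hc
  rw [centralizer_subgroupOf h'] at hc'
  exact ⟨_, hc, _, hc', congrArg Subtype.val he⟩

theorem le_normalizer_of_conj {H R : Subgroup X} (h : ∀ x ∈ H, ∀ r ∈ R, x * r * x⁻¹ ∈ R) :
    H ≤ Subgroup.normalizer (R : Set X) :=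
  (Subgroup.le_normalizer_iff).2 fun x hx a ha => h x hx a ha

theorem conj_mem_of_normalizer {x r : X} {R : Subgroup X}
    (hx : x ∈ Subgroup.normalizer (R : Set X)) (hr : r ∈ R) : x * r * x⁻¹ ∈ R :=
  ((Subgroup.mem_normalizer_iff).1 hx r).1 hr

/-- Elements of `R` whose commutators with `S` lie in the normal subgroup `Z`. -/
def pairKer (R S Z : Subgroup X) [Z.Normal] : Subgroup X where
  carrier := {r | r ∈ R ∧ ∀ s ∈ S, ⁅r, s⁆ ∈ Z}
  one_mem' := ⟨one_mem R, fun s _ => by rw [commutatorElement_one_left]; exact one_mem Z⟩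
  mul_mem' := fun {a b} ha hb => ⟨mul_mem ha.1 hb.1, fun s hs => by
    have e : ⁅a * b, s⁆ = a * ⁅b, s⁆ * a⁻¹ * ⁅a, s⁆ := by simp only [commutatorElement_def]; group
    rw [e]
    exact mul_mem ((inferInstance : Z.Normal).conj_mem _ (hb.2 s hs) a) (ha.2 s hs)⟩
  inv_mem' := fun {a} ha => ⟨inv_mem ha.1, fun s hs => by
    have e : ⁅a⁻¹, s⁆ = a⁻¹ * ⁅a, s⁆⁻¹ * a⁻¹⁻¹ := by simp only [commutatorElement_def]; group
    rw [e]
    exact (inferInstance : Z.Normal).conj_mem _ (inv_mem (ha.2 s hs)) a⁻¹⟩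

theorem mem_pairKer {R S Z : Subgroup X} [Z.Normal] {r : X} :
    r ∈ pairKer R S Z ↔ r ∈ R ∧ ∀ s ∈ S, ⁅r, s⁆ ∈ Z := Iff.rfl

theorem normalizer_le_pairKer (R S Z : Subgroup X) [Z.Normal] :
    Subgroup.normalizer (R : Set X) ⊓ Subgroup.normalizer (S : Set X) ≤
      Subgroup.normalizer (pairKer R S Z : Set X) := by
  refine le_normalizer_of_conj fun x hx r hr => ?_
  refine ⟨conj_mem_of_normalizer hx.1 hr.1, fun s hs => ?_⟩
  have e : ⁅x * r * x⁻¹, s⁆ = x * ⁅r, x⁻¹ * s * x⁆ * x⁻¹ := by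
    simp only [commutatorElement_def]; group
  rw [e]
  refine (inferInstance : Z.Normal).conj_mem _ (hr.2 _ ?_) x
  simpa using conj_mem_of_normalizer (inv_mem hx.2) hs

end Cfsg.Agent.CF.CDQuad
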