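import Cfsg.Agent.CF.CDQuad.Basic
import Cfsg.Agent.CF.ChiefStable

/-!
If `|J : Q| |C_V(u)| ≤ |V|` for all `u ∈ J ∖ Q` and `J` is quadratic on `V` modulo the centre, then
either the subgroup generated by the abelian subgroups in the top of the Chermak–Delgado lattice of
`J` is normal, or some element of `J ∖ Q` is quadratic on all chief factors inside `Q`.
-/

set_option autoImplicit false
set_option linter.style.haveILetI false

open scoped commutatorElement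

namespace Cfsg.Agent.CF.CDQuad

open Cfsg.Agent.Fusion

universe u

variable {X : Type u} [Group X]

/-- The hypotheses on `Q ≤ J` and `V`. -/
structure Hyp (p : ℕ) (Q J V Z₀ : Subgroup X) : Prop where
  Qn : Q.Normal
  Jp : IsPGroup p J
  QJ : Q ≤ J
  Vn : V.Normal
  VQ : V ≤ Q
  cent : ∀ q ∈ Q, ∀ v ∈ V, q * v = v * q
  Zc : Z₀ ≤ Subgroup.center X
  idx : ∀ u ∈ J, u ∉ Q →
    Nat.card J * Nat.card (V ⊓ Subgroup.centralizer ({u} : Set X) : Subgroup X) ≤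
      Nat.card Q * Nat.card V
  quad : ∀ a ∈ J, ∀ b ∈ J, ∀ v ∈ V, ⁅b, ⁅a, v⁆⁆ ∈ Z₀
  gen : ∃ g : X, J ⊔ cj g J = ⊤

/-- A pair `B`, `C` of mutually centralising subgroups of `Q` of largest measure, moved by `A`
only inside `V`. -/
structure Data (Q J V A B C : Subgroup X) : Prop where
  BQ : B ≤ Q
  CQ : C ≤ Q
  VB : V ≤ B
  VC : V ≤ C
  comm : ∀ b ∈ B, ∀ c ∈ C, b * c = c * b
  big : Cfsg.maxCentralizerProduct J ≤ Nat.card B * Nat.card C
  moveB : ∀ a ∈ A, ∀ b ∈ B, ⁅a, b⁆ ∈ V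
  moveC : ∀ a ∈ A, ∀ c ∈ C, ⁅a, c⁆ ∈ V

variable [Finite X] {p : ℕ} [Fact p.Prime] {Q J V Z₀ : Subgroup X}

section
variable {A B C A' B' C' : Subgroup X}

omit [Finite X] in
theorem Data.swap (d : Data Q J V A B C) : Data Q J V A C B :=
  ⟨d.CQ, d.BQ, d.VC, d.VB, fun c hc b hb => (d.comm b hb c hc).symm,
    d.big.trans (mul_comm _ _).le, d.moveC, d.moveB⟩

theorem Data.cen_eq (hQJ : Q ≤ J) (d : Data Q J V A B C) :
    J ⊓ Subgroup.centralizer (B : Set X) = C := by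
  have hle : C ≤ J ⊓ Subgroup.centralizer (B : Set X) :=
    le_inf (d.CQ.trans hQJ) fun c hc => Subgroup.mem_centralizer_iff.2 fun b hb => d.comm b hb c hc
  refine (Subgroup.eq_of_le_of_card_ge hle (Nat.le_of_mul_le_mul_left ?_ (Nat.card_pos (α := B)))).symm
  exact (mJ_le (d.BQ.trans hQJ)).trans d.big

theorem Data.large (hQJ : Q ≤ J) (d : Data Q J V A B C) :
    Cfsg.maxCentralizerProduct J ≤ mJ J B := by
  rw [mJ, d.cen_eq hQJ]; exact d.big

theorem Data.dec (hQJ : Q ≤ J) (d : Data Q J V A B C) (d' : Data Q J V A' B' C') {x : X}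
    (hx : x ∈ Q) (h : ∀ y ∈ B ⊓ B', y * x = x * y) : ∃ c ∈ C, ∃ c' ∈ C', c * c' = x := by
  obtain ⟨c, hc, c', hc', he⟩ :=
    lattice_mem (d.BQ.trans hQJ) (d'.BQ.trans hQJ) (d.large hQJ) (d'.large hQJ) x (hQJ hx) h
  rw [d.cen_eq hQJ] at hc
  rw [d'.cen_eq hQJ] at hc'
  exact ⟨c, hc, c', hc', he⟩

omit [Finite X] in
theorem Data.normalizes (d : Data Q J V A B C) (hVB' : V ≤ B') :
    A ≤ Subgroup.normalizer ((B ⊓ B' : Subgroup X) : Set X) := by
  refine le_normalizer_of_conj fun a ha b hb => ?_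
  rw [show a * b * a⁻¹ = ⁅a, b⁆ * b by simp [commutatorElement_def]]
  exact ⟨mul_mem (d.VB (d.moveB a ha b hb.1)) hb.1, mul_mem (hVB' (d.moveB a ha b hb.1)) hb.2⟩

omit [Finite X] in
theorem normalizes_inf_centralizer [Q.Normal] {H D : Subgroup X}
    (h : H ≤ Subgroup.normalizer (D : Set X)) :
    H ≤ Subgroup.normalizer ((Q ⊓ Subgroup.centralizer (D : Set X) : Subgroup X) : Set X) := by
  refine le_normalizer_of_conj fun x hx q hq => ⟨(inferInstance : Q.Normal).conj_mem q hq.1 x, ?_⟩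
  refine Subgroup.mem_centralizer_iff.2 fun y hy => ?_
  have := Subgroup.mem_centralizer_iff.1 hq.2 (x⁻¹ * y * x)
    (by simpa using conj_mem_of_normalizer (inv_mem (h hx)) hy)
  calc y * (x * q * x⁻¹) = x * (x⁻¹ * y * x * q) * x⁻¹ := by group
    _ = x * q * x⁻¹ * y := by rw [this]; group

end

namespace Hyp

variable (hH : Hyp p Q J V Z₀)
include hH

omit [Fact p.Prime] in
/-- The basic counting. -/
theorem grow {R : Subgroup X} {u : X} (hu : u ∈ J) (huQ : u ∉ Q)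
    (hc : ∀ x ∈ R, x ∈ V → u * x = x * u) :
    Nat.card (R ⊓ Q : Subgroup X) * Nat.card J ≤
      Nat.card (R ⊓ Q ⊔ V : Subgroup X) * Nat.card Q := by
  have h1 := LAE62.card_mul_card_le_sup (R ⊓ Q) V
  have h2 : Nat.card (R ⊓ Q ⊓ V : Subgroup X) ≤
      Nat.card (V ⊓ Subgroup.centralizer ({u} : Set X) : Subgroup X) :=
    Subgroup.card_le_of_le fun x hx => ⟨hx.2, Subgroup.mem_centralizer_singleton_iff.2
      (hc x hx.1.1 hx.2).symm⟩
  refine Nat.le_of_mul_le_mul_right ?_ (Nat.card_pos (α := V))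
  calc Nat.card (R ⊓ Q : Subgroup X) * Nat.card J * Nat.card V
      = Nat.card (R ⊓ Q : Subgroup X) * Nat.card V * Nat.card J := by ring
    _ ≤ Nat.card (R ⊓ Q ⊔ V : Subgroup X) * Nat.card (R ⊓ Q ⊓ V : Subgroup X) * Nat.card J :=
      Nat.mul_le_mul_right _ h1
    _ ≤ Nat.card (R ⊓ Q ⊔ V : Subgroup X) *
        (Nat.card J * Nat.card (V ⊓ Subgroup.centralizer ({u} : Set X) : Subgroup X)) := by
      rw [mul_assoc, mul_comm (Nat.card J)]
      exact Nat.mul_le_mul_left _ (Nat.mul_le_mul_right _ h2)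
    _ ≤ Nat.card (R ⊓ Q ⊔ V : Subgroup X) * (Nat.card Q * Nat.card V) :=
      Nat.mul_le_mul_left _ (hH.idx u hu huQ)
    _ = _ := by ring

omit [Fact p.Prime] in
theorem shrink {R : Subgroup X} (hR : R ≤ J) :
    Nat.card R * Nat.card Q ≤ Nat.card (R ⊓ Q : Subgroup X) * Nat.card J := by
  refine (LAE62.card_mul_card_le_sup R Q).trans ?_
  rw [mul_comm]
  exact Nat.mul_le_mul_left _ (Subgroup.card_le_of_le (sup_le hR hH.QJ))

omit [Fact p.Prime] in
/-- If all large abelian subgroups lie in `Q`, their join is normal. -/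
theorem normal_of_le (h : ∀ A ≤ J, IsMulCommutative A →
    Cfsg.maxCentralizerProduct J ≤ mJ J A → A ≤ Q) :
    (Cfsg.inducedFunctor cdAb J).Normal := by
  classical
  haveI := hH.Qn
  set 𝒜 := {A : Subgroup X | A ≤ Q ∧ IsMulCommutative A ∧ Cfsg.maxCentralizerProduct J ≤
    Nat.card A * Nat.card (Q ⊓ Subgroup.centralizer (A : Set X) : Subgroup X)} with h𝒜
  have he : Cfsg.inducedFunctor cdAb J = sSup 𝒜 := by
    rw [induced_cdAb]
    refine le_antisymm (sSup_le ?_) (sSup_le ?_)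
    · rintro A ⟨hAJ, hAc, hA⟩
      have hAQ := h A hAJ hAc hA
      by_cases hC : J ⊓ Subgroup.centralizer (A : Set X) ≤ Q
      · refine le_sSup ⟨hAQ, hAc, hA.trans (Nat.mul_le_mul_left _ (Subgroup.card_le_of_le ?_))⟩
        exact le_inf hC inf_le_right
      obtain ⟨u, ⟨huJ, huC⟩, huQ⟩ := SetLike.not_le_iff_exists.1 hC
      refine le_sup_left.trans (le_sSup (show A ⊔ V ∈ 𝒜 from ⟨sup_le hAQ hH.VQ, ?_, ?_⟩))
      · refine Subgroup.le_centralizer_iff_isMulCommutative.1 ?_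
        rw [LAE62.centralizer_sup]
        refine sup_le (le_inf (Subgroup.le_centralizer_iff_isMulCommutative.2 hAc) ?_)
          (le_inf ?_ ?_)
        · exact fun a ha => Subgroup.mem_centralizer_iff.2 fun v hv => (hH.cent a (hAQ ha) v hv).symm
        · exact fun v hv => Subgroup.mem_centralizer_iff.2 fun a ha => hH.cent a (hAQ ha) v hv
        · exact fun v hv => Subgroup.mem_centralizer_iff.2 fun w hw => hH.cent w (hH.VQ hw) v hv
      have h1 := hH.grow (R := A) huJ huQ fun x hx _ =>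
        (Subgroup.mem_centralizer_iff.1 huC x hx).symm
      rw [inf_eq_left.2 hAQ] at h1
      have h2 := hH.shrink (R := J ⊓ Subgroup.centralizer (A : Set X)) inf_le_left
      have h3 : Nat.card (J ⊓ Subgroup.centralizer (A : Set X) ⊓ Q : Subgroup X) ≤
          Nat.card (Q ⊓ Subgroup.centralizer ((A ⊔ V : Subgroup X) : Set X) : Subgroup X) := by
        refine Subgroup.card_le_of_le fun x hx => ⟨hx.2, ?_⟩
        rw [LAE62.centralizer_sup]
        exact ⟨hx.1.2, Subgroup.mem_centralizer_iff.2 fun v hv => (hH.cent x hx.2 v hv).symm⟩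
      refine hA.trans (Nat.le_of_mul_le_mul_right ?_
        (Nat.mul_pos (Nat.card_pos (α := Q)) (Nat.card_pos (α := J))))
      calc mJ J A * (Nat.card Q * Nat.card J)
          = (Nat.card A * Nat.card J) *
            (Nat.card (J ⊓ Subgroup.centralizer (A : Set X) : Subgroup X) * Nat.card Q) := by
            rw [mJ]; ring
        _ ≤ (Nat.card (A ⊔ V : Subgroup X) * Nat.card Q) *
            (Nat.card (Q ⊓ Subgroup.centralizer ((A ⊔ V : Subgroup X) : Set X) : Subgroup X) *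
              Nat.card J) := Nat.mul_le_mul h1 (h2.trans (Nat.mul_le_mul_right _ h3))
        _ = _ := by ring
    · rintro A ⟨hAQ, hAc, hA⟩
      exact le_sSup ⟨hAQ.trans hH.QJ, hAc, hA.trans (Nat.mul_le_mul_left _
        (Subgroup.card_le_of_le (inf_le_inf_right _ hH.QJ)))⟩
  rw [he]
  refine ⟨fun x hx g => ?_⟩
  suffices hs : sSup 𝒜 ≤ (sSup 𝒜).comap (MulAut.conj g).toMonoidHom from hs hx
  refine sSup_le fun A hA => Subgroup.map_le_iff_le_comap.1 (le_sSup ?_)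
  refine ⟨(cj_mono g hA.1).trans (cj_eq_of_normal g Q).le, comm_map _ hA.2.1, hA.2.2.trans ?_⟩
  show _ ≤ Nat.card (cj g A : Subgroup X) * _
  rw [card_cj]
  refine Nat.mul_le_mul_left _ ?_
  rw [← card_cj g (Q ⊓ Subgroup.centralizer (A : Set X))]
  refine Subgroup.card_le_of_le ?_
  rintro _ ⟨y, hy, rfl⟩
  refine ⟨(inferInstance : Q.Normal).conj_mem y hy.1 g, Subgroup.mem_centralizer_iff.2 ?_⟩
  rintro _ ⟨a, ha, rfl⟩
  rw [← map_mul, ← map_mul, Subgroup.mem_centralizer_iff.1 hy.2 a ha]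

omit [Fact p.Prime] in
/-- A large abelian subgroup outside `Q` gives the data. -/
theorem exists_data {A : Subgroup X} (hAJ : A ≤ J) (hAc : IsMulCommutative A)
    (hA : Cfsg.maxCentralizerProduct J ≤ mJ J A) (hAQ : ¬ A ≤ Q) :
    A ⊔ Q = J ∧ ∃ B C, Data Q J V A B C ∧
      ∀ a ∈ A, ∀ b ∈ A, ∀ c ∈ C, ⁅b, ⁅a, c⁆⁆ ∈ Z₀ := by
  classical
  haveI := hH.Qn
  haveI := hH.Vn
  obtain ⟨u, huA, huQ⟩ := SetLike.not_le_iff_exists.1 hAQ
  set Xc := J ⊓ Subgroup.centralizer (A : Set X) with hXc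
  have hAX : A ≤ Xc := le_inf hAJ (Subgroup.le_centralizer_iff_isMulCommutative.2 hAc)
  have g1 := hH.grow (R := A) (hAJ huA) huQ fun x hx _ =>
    congrArg Subtype.val (hAc.1.1 ⟨u, huA⟩ ⟨x, hx⟩)
  have g2 := hH.grow (R := Xc) (hAJ huA) huQ fun x hx _ =>
    Subgroup.mem_centralizer_iff.1 hx.2 u huA
  have s1 := hH.shrink hAJ
  have s2 := hH.shrink (R := Xc) inf_le_left
  set B := A ⊓ Q ⊔ V with hB
  set C := Xc ⊓ Q ⊔ V with hC
  have hBQ : B ≤ Q := sup_le inf_le_right hH.VQ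
  have hCQ : C ≤ Q := sup_le inf_le_right hH.VQ
  have hcomm : ∀ b ∈ B, ∀ c ∈ C, b * c = c * b := by
    intro b hb c hc
    obtain ⟨e, he, v, hv, rfl⟩ := Subgroup.mem_sup_of_normal_right.1 hb
    obtain ⟨f, hf, w, hw, rfl⟩ := Subgroup.mem_sup_of_normal_right.1 hc
    have c1 : Commute e f := Subgroup.mem_centralizer_iff.1 hf.1.2 e he.1
    have c2 : Commute e w := hH.cent e he.2 w hw
    have c3 : Commute v f := (hH.cent f hf.2 v hv).symm
    have c4 : Commute v w := hH.cent v (hH.VQ hv) w hw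
    exact ((c1.mul_right c2).mul_left (c3.mul_right c4)).eq
  have hAB : Nat.card A ≤ Nat.card B :=
    Nat.le_of_mul_le_mul_right (s1.trans g1) (Nat.card_pos (α := Q))
  have hXC : Nat.card Xc ≤ Nat.card C :=
    Nat.le_of_mul_le_mul_right (s2.trans g2) (Nat.card_pos (α := Q))
  have hbig : Cfsg.maxCentralizerProduct J ≤ Nat.card B * Nat.card C :=
    hA.trans (Nat.mul_le_mul hAB hXC)
  have hBA : Nat.card B ≤ Nat.card A := by
    refine Nat.le_of_mul_le_mul_right ?_ (Nat.card_pos (α := C))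
    refine le_trans ?_ (Nat.mul_le_mul_left (Nat.card A) hXC)
    refine le_trans ?_ ((mJ_le (hBQ.trans hH.QJ)).trans hA)
    exact Nat.mul_le_mul_left _ (Subgroup.card_le_of_le (le_inf (hCQ.trans hH.QJ) fun c hc =>
      Subgroup.mem_centralizer_iff.2 fun b hb => hcomm b hb c hc))
  refine ⟨Subgroup.eq_of_le_of_card_ge (sup_le hAJ hH.QJ) ?_, B, C,
    ⟨hBQ, hCQ, le_sup_right, le_sup_right, hcomm, hbig, ?_, ?_⟩, ?_⟩
  · refine Nat.le_of_mul_le_mul_left ?_ (Nat.card_pos (α := (A ⊓ Q : Subgroup X)))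
    calc Nat.card (A ⊓ Q : Subgroup X) * Nat.card J ≤ Nat.card B * Nat.card Q := g1
      _ ≤ Nat.card A * Nat.card Q := Nat.mul_le_mul_right _ hBA
      _ ≤ Nat.card (A ⊔ Q : Subgroup X) * Nat.card (A ⊓ Q : Subgroup X) :=
        LAE62.card_mul_card_le_sup A Q
      _ = _ := mul_comm _ _
  rotate_left 2
  · intro a ha b hb c hc
    obtain ⟨e, he, v, hv, rfl⟩ := Subgroup.mem_sup_of_normal_right.1 hc
    have h1 : Commute a e := Subgroup.mem_centralizer_iff.1 he.1.2 a ha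
    have h2 : ⁅a, v⁆ ∈ V := by
      rw [commutatorElement_def]
      exact mul_mem (hH.Vn.conj_mem v hv a) (inv_mem hv)
    rw [show ⁅a, e * v⁆ = ⁅a, e⁆ * (e * ⁅a, v⁆ * e⁻¹) by simp only [commutatorElement_def]; group,
      commutatorElement_eq_one_iff_commute.2 h1, one_mul, hH.cent e he.2 _ h2, mul_inv_cancel_right]
    exact hH.quad a (hAJ ha) b (hAJ hb) v hv
  all_goals
    intro a ha b hb
    obtain ⟨e, he, v, hv, rfl⟩ := Subgroup.mem_sup_of_normal_right.1 hb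
    have h1 : a * e = e * a := by
      first
        | exact congrArg Subtype.val (hAc.1.1 ⟨a, ha⟩ ⟨e, he.1⟩)
        | exact Subgroup.mem_centralizer_iff.1 he.1.2 a ha
    rw [show ⁅a, e * v⁆ = (a * e * a⁻¹ * e⁻¹) * (e * ⁅a, v⁆ * e⁻¹) by
      simp only [commutatorElement_def]; group, h1, mul_inv_cancel_right, mul_inv_cancel, one_mul]
    refine hH.Vn.conj_mem _ ?_ e
    rw [commutatorElement_def]
    exact mul_mem (hH.Vn.conj_mem v hv a) (inv_mem hv)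

omit [Fact p.Prime] [Finite X] in
theorem comm_right {t v s : X} (ht : t ∈ Q) (hv : v ∈ V) (hs : s ∈ Q) : ⁅t, v * s⁆ = ⁅t, s⁆ := by
  have h1 : ⁅t, v⁆ = 1 := commutatorElement_eq_one_iff_commute.2 (hH.cent t ht v hv)
  have h2 : ⁅t, s⁆ ∈ Q := by
    rw [commutatorElement_def]
    exact mul_mem (mul_mem (mul_mem ht hs) (inv_mem ht)) (inv_mem hs)
  rw [show ⁅t, v * s⁆ = ⁅t, v⁆ * (v * ⁅t, s⁆ * v⁻¹) by simp only [commutatorElement_def]; group,
    h1, one_mul, ← hH.cent _ h2 v hv, mul_inv_cancel_right]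

omit [Fact p.Prime] [Finite X] in
theorem comm_left {t v s : X} (ht : t ∈ Q) (hv : v ∈ V) (hs : s ∈ Q) : ⁅v * t, s⁆ = ⁅t, s⁆ := by
  have := hH.comm_right (t := s) hs hv ht
  rw [← commutatorElement_inv, this, commutatorElement_inv]

/-- A normal `p`-subgroup centralises the chief factors inside it. -/
theorem chief_comm {U W : Subgroup X} (h : Cfsg.IsChiefFactor U W) (hU : U ≤ Q)
    {x q : X} (hx : x ∈ U) (hq : q ∈ Q) : ⁅x, q⁆ ∈ W := by
  haveI := hH.Qn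
  haveI := h.2.2.1
  set π := QuotientGroup.mk' W with hπ
  have hch := chief_map (QuotientGroup.mk'_surjective W) h (QuotientGroup.ker_mk' W).le
  rw [QuotientGroup.map_mk'_self] at hch
  haveI : (Q.map π).Normal := hH.Qn.map π (QuotientGroup.mk'_surjective W)
  have hQp : IsPGroup p (Q.map π) := (hH.Jp.to_le hH.QJ).map π
  have hc := chief_centralized_mod hch ((hH.Jp.to_le (hU.trans hH.QJ)).map π) hQp
    (MonoidHom.id (Q.map π)) Function.surjective_id (by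
      rw [show (MonoidHom.id (Q.map π)).ker = ⊥ from (MonoidHom.ker_eq_bot_iff _).2
        Function.injective_id, Subgroup.map_bot]
      exact bot_le) ⟨q, hq, rfl⟩
  refine (QuotientGroup.eq_one_iff _).1 ?_
  show π ⁅x, q⁆ = 1
  rw [map_commutatorElement, commutatorElement_eq_one_iff_commute]
  exact Subgroup.mem_centralizer_iff.1 hc _ ⟨x, hx, rfl⟩

end Hyp

section Pairing

omit [Finite X] [Fact p.Prime]

theorem mul_left {Z Z' : Subgroup X} [Z'.Normal]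
    (hZ : ∀ z ∈ Z, ∀ q ∈ Q, ⁅z, q⁆ ∈ Z') {t t' s : X} (ht : t ∈ Q) (hs : s ∈ Q)
    (h' : ⁅t', s⁆ ∈ Z) : QuotientGroup.mk' Z' ⁅t * t', s⁆ =
      QuotientGroup.mk' Z' ⁅t, s⁆ * QuotientGroup.mk' Z' ⁅t', s⁆ := by
  set π := QuotientGroup.mk' Z' with hπ
  have hc : ∀ q ∈ Q, Commute (π ⁅t', s⁆) (π q) := fun q hq => by
    rw [← commutatorElement_eq_one_iff_commute, ← map_commutatorElement]
    exact (QuotientGroup.eq_one_iff _).2 (hZ _ h' q hq)
  have hts : ⁅t, s⁆ ∈ Q := by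
    rw [commutatorElement_def]
    exact mul_mem (mul_mem (mul_mem ht hs) (inv_mem ht)) (inv_mem hs)
  rw [show ⁅t * t', s⁆ = t * ⁅t', s⁆ * t⁻¹ * ⁅t, s⁆ by simp only [commutatorElement_def]; group,
    map_mul, map_mul, map_mul, map_inv, ← (hc t ht).eq, mul_inv_cancel_right]
  exact (hc _ hts).eq

theorem mul_right {Z Z' : Subgroup X} [Z'.Normal]
    (hZ : ∀ z ∈ Z, ∀ q ∈ Q, ⁅z, q⁆ ∈ Z') {t s s' : X} (hs : s ∈ Q)
    (h' : ⁅t, s'⁆ ∈ Z) : QuotientGroup.mk' Z' ⁅t, s * s'⁆ =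
      QuotientGroup.mk' Z' ⁅t, s⁆ * QuotientGroup.mk' Z' ⁅t, s'⁆ := by
  set π := QuotientGroup.mk' Z' with hπ
  have hc : Commute (π ⁅t, s'⁆) (π s) := by
    rw [← commutatorElement_eq_one_iff_commute, ← map_commutatorElement]
    exact (QuotientGroup.eq_one_iff _).2 (hZ _ h' s hs)
  rw [show ⁅t, s * s'⁆ = ⁅t, s⁆ * (s * ⁅t, s'⁆ * s⁻¹) by simp only [commutatorElement_def]; group,
    map_mul, map_mul, map_mul, map_inv, ← hc.eq, mul_inv_cancel_right]

theorem conj_comm {Y : Type*} [Group Y] (π : X →* Y) (l t s : X) :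
    π ⁅l * t * l⁻¹, l * s * l⁻¹⁆ = π l * π ⁅t, s⁆ * (π l)⁻¹ := by
  rw [← map_inv, ← map_mul, ← map_mul]
  congr 1
  simp only [commutatorElement_def]; group

theorem conj_eq (a x : X) : a * x * a⁻¹ = ⁅a, x⁆ * x := by simp [commutatorElement_def]

theorem commutator_normalized (A A' : Subgroup X) :
    A ⊔ A' ≤ Subgroup.normalizer ((⁅A, A'⁆ : Subgroup X) : Set X) := by
  refine sup_le (le_normalizer_of_conj fun x hx => ?_) (le_normalizer_of_conj fun x hx => ?_)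
  all_goals
    intro r hr
    suffices h : ⁅A, A'⁆ ≤ ⁅A, A'⁆.comap (MulAut.conj x).toMonoidHom from h hr
    refine Subgroup.commutator_le.2 fun a ha a' ha' => ?_
    rw [Subgroup.mem_comap]
    show x * ⁅a, a'⁆ * x⁻¹ ∈ _
  · rw [show x * ⁅a, a'⁆ * x⁻¹ = ⁅x * a, a'⁆ * ⁅x, a'⁆⁻¹ by simp only [commutatorElement_def]; group]
    exact mul_mem (Subgroup.commutator_mem_commutator (mul_mem hx ha) ha')
      (inv_mem (Subgroup.commutator_mem_commutator hx ha'))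
  · rw [show x * ⁅a, a'⁆ * x⁻¹ = ⁅a, x⁆⁻¹ * ⁅a, x * a'⁆ by simp only [commutatorElement_def]; group]
    exact mul_mem (inv_mem (Subgroup.commutator_mem_commutator ha hx))
      (Subgroup.commutator_mem_commutator ha (mul_mem hx ha'))

theorem inv_conj_eq (a x : X) : a⁻¹ * x * a = ⁅a⁻¹, x⁆ * x := by simp [commutatorElement_def]

end Pairing

/-- `Q ∩ C(B ∩ B')`. -/
abbrev cT (Q B B' : Subgroup X) : Subgroup X :=
  Q ⊓ Subgroup.centralizer ((B ⊓ B' : Subgroup X) : Set X)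

section
variable {A B C A' B' C' : Subgroup X}

omit [Finite X] in
theorem Data.mem_cT (d : Data Q J V A B C) {c : X} (hc : c ∈ C) : c ∈ cT Q B B' :=
  ⟨d.CQ hc, Subgroup.mem_centralizer_iff.2 fun y hy => d.comm y hy.1 c hc⟩

omit [Finite X] in
theorem Data.mem_cT' (d' : Data Q J V A' B' C') {c : X} (hc : c ∈ C') : c ∈ cT Q B B' :=
  ⟨d'.CQ hc, Subgroup.mem_centralizer_iff.2 fun y hy => d'.comm y hy.2 c hc⟩

omit [Finite X] in
theorem Data.normalizes_rhat [Q.Normal] (d : Data Q J V A B C) (d' : Data Q J V A' B' C')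
    (Z : Subgroup X) [Z.Normal] :
    A ⊔ A' ≤ Subgroup.normalizer (pairKer (cT Q B B') (cT Q C C') Z : Set X) := by
  refine le_trans ?_ (normalizer_le_pairKer _ _ _)
  have e1 : A' ≤ Subgroup.normalizer ((B ⊓ B' : Subgroup X) : Set X) := by
    rw [inf_comm]; exact d'.normalizes d.VB
  have e2 : A' ≤ Subgroup.normalizer ((C ⊓ C' : Subgroup X) : Set X) := by
    rw [inf_comm]; exact d'.swap.normalizes d.VC
  exact sup_le
    (le_inf (normalizes_inf_centralizer (d.normalizes d'.VB))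
      (normalizes_inf_centralizer (d.swap.normalizes d'.VC)))
    (le_inf (normalizes_inf_centralizer e1) (normalizes_inf_centralizer e2))

/-- Both parts of a decomposition stay in the kernel. -/
theorem Data.rhat_dec (hQJ : Q ≤ J) (d : Data Q J V A B C) (d' : Data Q J V A' B' C')
    {Z : Subgroup X} [Z.Normal] {t c c' : X}
    (ht : t ∈ pairKer (cT Q B B') (cT Q C C') Z) (hc : c ∈ C) (hc' : c' ∈ C') (he : c * c' = t) :
    c ∈ pairKer (cT Q B B') (cT Q C C') Z ∧ c' ∈ pairKer (cT Q B B') (cT Q C C') Z := by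
  have h' : c' ∈ pairKer (cT Q B B') (cT Q C C') Z := by
    refine ⟨d'.mem_cT' hc', fun s hs => ?_⟩
    obtain ⟨b, hb, b', hb', hbe⟩ := d.swap.dec hQJ d'.swap hs.1
      (Subgroup.mem_centralizer_iff.1 hs.2)
    have e0 : ⁅c', b'⁆ = 1 := commutatorElement_eq_one_iff_commute.2 (d'.comm b' hb' c' hc').symm
    have e1 : ⁅c', s⁆ = ⁅c', b⁆ := by
      rw [← hbe, show ⁅c', b * b'⁆ = ⁅c', b⁆ * (b * ⁅c', b'⁆ * b⁻¹) by
        simp only [commutatorElement_def]; group, e0, mul_one, mul_inv_cancel, mul_one]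
    have e2 : ⁅c, b⁆ = 1 := commutatorElement_eq_one_iff_commute.2 (d.comm b hb c hc).symm
    have e3 : ⁅c', b⁆ = c⁻¹ * ⁅t, b⁆ * c⁻¹⁻¹ := by
      rw [← he, show ⁅c * c', b⁆ = c * ⁅c', b⁆ * c⁻¹ * ⁅c, b⁆ by
        simp only [commutatorElement_def]; group, e2]
      group
    rw [e1, e3]
    exact (inferInstance : Z.Normal).conj_mem _ (ht.2 b (d.swap.mem_cT hb)) _
  refine ⟨?_, h'⟩
  rw [show c = t * c'⁻¹ by rw [← he, mul_inv_cancel_right]]
  exact mul_mem ht (inv_mem h')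

end

namespace Hyp

variable (hH : Hyp p Q J V Z₀)
include hH

omit [Fact p.Prime] in
/-- The mixed values of the pairing are fixed by `⁅A, A'⁆`. -/
theorem fixed_gen {A B C A' B' C' : Subgroup X} (d : Data Q J V A B C) (d' : Data Q J V A' B' C')
    {Z Z' : Subgroup X} [Z.Normal] [Z'.Normal] (hZ : ∀ z ∈ Z, ∀ q ∈ Q, ⁅z, q⁆ ∈ Z') {c' b : X}
    (hc' : c' ∈ C') (hcr : c' ∈ pairKer (cT Q B B') (cT Q C C') Z) (hb : b ∈ B) :
    ⁅c', b⁆ ∈ pairKer Z ⁅A, A'⁆ Z' := by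
  haveI := hH.Qn
  set π := QuotientGroup.mk' Z' with hπ
  set Rh := pairKer (cT Q B B') (cT Q C C') Z with hRh
  have hn := d.normalizes_rhat d' Z
  set m := π ⁅c', b⁆ with hm
  -- the two orders agree
  have hswap : ∀ a ∈ A, ∀ a' ∈ A',
      π (a' * a) * m * (π (a' * a))⁻¹ = π (a * a') * m * (π (a * a'))⁻¹ := by
    intro a ha a' ha'
    have hx : a * c' * a⁻¹ ∈ Rh := conj_mem_of_normalizer (hn (Subgroup.mem_sup_left ha)) hcr
    obtain ⟨γ, hγ, γ', hγ', he⟩ := d.dec hH.QJ d' hx.1.1 (Subgroup.mem_centralizer_iff.1 hx.1.2)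
    obtain ⟨hγr, hγ'r⟩ := d.rhat_dec hH.QJ d' hx hγ hγ' he
    -- conjugation by `a`
    have hA : ∀ β ∈ B, π a * π ⁅c', β⁆ * (π a)⁻¹ = π ⁅γ', β⁆ := by
      intro β hβ
      rw [← conj_comm, conj_eq a β, hH.comm_right hx.1.1 (d.moveB a ha β hβ) (d.BQ hβ), ← he,
        mul_left hZ hγr.1.1 (d.BQ hβ) (hγ'r.2 β (d.swap.mem_cT hβ)),
        commutatorElement_eq_one_iff_commute.2 (d.comm β hβ γ hγ).symm, map_one, one_mul]
    -- conjugation by `a'`
    have hxb : a' * b * a'⁻¹ ∈ cT Q C C' := by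
      have e2 : A' ≤ Subgroup.normalizer ((C ⊓ C' : Subgroup X) : Set X) := by
        rw [inf_comm]; exact d'.swap.normalizes d.VC
      exact conj_mem_of_normalizer (normalizes_inf_centralizer e2 ha') (d.swap.mem_cT hb)
    obtain ⟨β, hβ, β', hβ', hbe⟩ :=
      d.swap.dec hH.QJ d'.swap hxb.1 (Subgroup.mem_centralizer_iff.1 hxb.2)
    have hA' : ∀ e ∈ C', π a' * π ⁅e, b⁆ * (π a')⁻¹ = π ⁅e, β⁆ := by
      intro e he'
      rw [← conj_comm, conj_eq a' e, ← hbe,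
        hH.comm_left (d'.CQ he') (d'.moveC a' ha' e he') (mul_mem (d.BQ hβ) (d'.BQ hβ')),
        show ⁅e, β * β'⁆ = ⁅e, β⁆ * (β * ⁅e, β'⁆ * β⁻¹) by simp only [commutatorElement_def]; group,
        commutatorElement_eq_one_iff_commute.2 (d'.comm β' hβ' e he').symm, mul_one, mul_inv_cancel,
        mul_one]
    calc π (a' * a) * m * (π (a' * a))⁻¹ = π a' * (π a * m * (π a)⁻¹) * (π a')⁻¹ := by
          rw [map_mul]; group
      _ = π ⁅γ', β⁆ := by rw [hm, hA b hb, hA' γ' hγ']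
      _ = π a * (π a' * m * (π a')⁻¹) * (π a)⁻¹ := by rw [hm, hA' c' hc', hA β hβ]
      _ = _ := by rw [map_mul]; group
  refine ⟨hcr.2 b (d.swap.mem_cT hb), fun k hk => ?_⟩
  suffices hle : ⁅A, A'⁆ ≤ (Subgroup.centralizer ({m} : Set (X ⧸ Z'))).comap π by
    refine (QuotientGroup.eq_one_iff _).1 ?_
    show π ⁅⁅c', b⁆, k⁆ = 1
    rw [map_commutatorElement, commutatorElement_eq_one_iff_commute]
    exact (Subgroup.mem_centralizer_singleton_iff.1 (hle hk)).symm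
  refine Subgroup.commutator_le.2 fun a ha a' ha' => ?_
  rw [Subgroup.mem_comap, Subgroup.mem_centralizer_singleton_iff]
  have h1 := hswap a⁻¹ (inv_mem ha) a'⁻¹ (inv_mem ha')
  have h2 : π ⁅a, a'⁆ * m * (π ⁅a, a'⁆)⁻¹ = m := by
    calc π ⁅a, a'⁆ * m * (π ⁅a, a'⁆)⁻¹
        = π (a * a') * (π (a⁻¹ * a'⁻¹) * m * (π (a⁻¹ * a'⁻¹))⁻¹) * (π (a * a'))⁻¹ := by
          simp only [commutatorElement_def, map_mul, map_inv]; group
      _ = π (a * a') * (π (a'⁻¹ * a⁻¹) * m * (π (a'⁻¹ * a⁻¹))⁻¹) * (π (a * a'))⁻¹ := by rw [h1]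
      _ = m := by simp only [map_mul, map_inv]; group
  exact (mul_inv_eq_iff_eq_mul.1 h2)

/-- An abelian `A` with `⁅A, A'⁆` trivial on a chief factor is trivial on it. -/
theorem fix_triv {A A' : Subgroup X} (hAp : IsPGroup p (A ⊔ Q : Subgroup X))
    (hgen : A ⊔ A' ⊔ Q = ⊤) {Z Z' : Subgroup X} (hch : Cfsg.IsChiefFactor Z Z') (hZQ : Z ≤ Q)
    [Z'.Normal] (hk : Z ≤ pairKer Z ⁅A, A'⁆ Z') : Z ≤ pairKer Z A Z' := by
  classical
  haveI := hH.Qn
  haveI := hch.2.1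
  have hZ : ∀ z ∈ Z, ∀ q ∈ Q, ⁅z, q⁆ ∈ Z' := fun z hz q hq => hH.chief_comm hch hZQ hz hq
  set F := pairKer Z A Z' with hF
  have hZ'F : Z' ≤ F := fun z hz => ⟨hch.1.le hz, fun a _ =>
    Subgroup.commutator_le_left Z' ⊤ (Subgroup.commutator_mem_commutator hz (Subgroup.mem_top a))⟩
  have hFn : F.Normal := by
    refine Subgroup.normalizer_eq_top_iff.1 (top_le_iff.1 (hgen.ge.trans (sup_le (sup_le ?_ ?_) ?_)))
    · exact le_trans (le_inf ((Subgroup.normalizer_eq_top (H := Z)).ge.trans' le_top)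
        Subgroup.le_normalizer) (normalizer_le_pairKer _ _ _)
    · refine le_normalizer_of_conj fun a' ha' z hz => ⟨hch.2.1.conj_mem z hz.1 a', fun a ha => ?_⟩
      rw [show ⁅a' * z * a'⁻¹, a⁆ = a' * ⁅z, a * ⁅a⁻¹, a'⁻¹⁆⁆ * a'⁻¹ by
        simp only [commutatorElement_def]; group]
      refine (inferInstance : Z'.Normal).conj_mem _ ?_ a'
      rw [show ⁅z, a * ⁅a⁻¹, a'⁻¹⁆⁆ = ⁅z, a⁆ * (a * ⁅z, ⁅a⁻¹, a'⁻¹⁆⁆ * a⁻¹) by
        simp only [commutatorElement_def]; group]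
      exact mul_mem (hz.2 a ha) ((inferInstance : Z'.Normal).conj_mem _
        ((hk hz.1).2 _ (Subgroup.commutator_mem_commutator (inv_mem ha) (inv_mem ha'))) a)
    · refine le_normalizer_of_conj fun q hq z hz => ?_
      rw [conj_eq, ← commutatorElement_inv]
      exact mul_mem (inv_mem (hZ'F (hZ z hz.1 q hq))) hz
  rcases hch.2.2.2 F hFn hZ'F (fun z hz => hz.1) with h | h
  · exfalso
    set π := QuotientGroup.mk' Z' with hπ
    have hsup : IsPGroup p ((A ⊔ Q : Subgroup X).map π) := hAp.map π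
    have hle : Z.map π ≤ (A ⊔ Q : Subgroup X).map π := Subgroup.map_mono (hZQ.trans le_sup_right)
    haveI : (Z.map π).Normal := hch.2.1.map π (QuotientGroup.mk'_surjective Z')
    have hne : (Z.map π).subgroupOf ((A ⊔ Q : Subgroup X).map π) ≠ ⊥ := by
      intro h0
      have : Z.map π = ⊥ := by rw [← Subgroup.map_subgroupOf_eq_of_le hle, h0, Subgroup.map_bot]
      rw [Subgroup.map_eq_bot_iff, QuotientGroup.ker_mk'] at this
      exact hch.1.not_ge this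
    refine PGroup.inf_center_ne_bot hsup _ hne ((Subgroup.eq_bot_iff_forall _).2 ?_)
    rintro ⟨_, hy⟩ ⟨hy1, hy2⟩
    obtain ⟨z, hz, rfl⟩ := hy1
    have hzF : z ∈ F := ⟨hz, fun a ha => (QuotientGroup.eq_one_iff _).1 (by
      show π ⁅z, a⁆ = 1
      rw [map_commutatorElement, commutatorElement_eq_one_iff_commute]
      exact (congrArg Subtype.val (Subgroup.mem_center_iff.1 hy2
        ⟨π a, Subgroup.mem_map_of_mem π (Subgroup.mem_sup_left ha)⟩)).symm)⟩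
    exact Subtype.ext ((QuotientGroup.eq_one_iff z).2 (h.le hzF))
  · exact h.ge

set_option maxHeartbeats 800000 in
/-- Two elements of `A` kill every chief factor inside `Q`. -/
theorem claim {A B C A' B' C' : Subgroup X} (d : Data Q J V A B C) (d' : Data Q J V A' B' C')
    (hC2 : ∀ a ∈ A, ∀ b ∈ A, ∀ c ∈ C, ⁅b, ⁅a, c⁆⁆ ∈ Z₀)
    (hAp : IsPGroup p (A ⊔ Q : Subgroup X))
    (hgen : A ⊔ A' ⊔ Q = ⊤) (U W : Subgroup X) (hUW : Cfsg.IsChiefFactor U W) (hUQ : U ≤ Q)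
    (a₁ : X) (h₁ : a₁ ∈ A) (a₂ : X) (h₂ : a₂ ∈ A) (x : X) (hx : x ∈ U) :
    ⁅a₂, ⁅a₁, x⁆⁆ ∈ W := by
  classical
  haveI := hH.Qn
  haveI := hH.Vn
  induction hn : Nat.card U using Nat.strong_induction_on generalizing U W a₁ a₂ x with
  | _ n ih =>
  haveI := hUW.2.1
  haveI := hUW.2.2.1
  set L := A ⊔ A' with hL
  have hUn : L ≤ Subgroup.normalizer (U : Set X) := by
    rw [Subgroup.normalizer_eq_top]; exact le_top
  obtain ⟨R, ⟨hRL, hRU, hRcov⟩, hmin⟩ := (Set.toFinite {R : Subgroup X |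
    L ≤ Subgroup.normalizer (R : Set X) ∧ R ≤ U ∧ U ≤ R ⊔ W}).exists_minimal
    ⟨U, hUn, le_rfl, le_sup_left⟩
  have hRQ : R ≤ Q := hRU.trans hUQ
  have hsmall : ∀ K : Subgroup X, L ≤ Subgroup.normalizer (K : Set X) → K ≤ R → K ≠ R → K ≤ W := by
    intro K hK hKR hne
    have hKn : (K ⊔ W).Normal := by
      refine Subgroup.normalizer_eq_top_iff.1 (top_le_iff.1 (hgen.ge.trans (sup_le ?_ ?_)))
      · refine le_normalizer_of_conj fun l hl y hy => ?_
        obtain ⟨k, hk, w, hw, rfl⟩ := Subgroup.mem_sup_of_normal_right.1 hy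
        rw [show l * (k * w) * l⁻¹ = l * k * l⁻¹ * (l * w * l⁻¹) by group]
        exact Subgroup.mul_mem_sup (conj_mem_of_normalizer (hK hl) hk)
          (hUW.2.2.1.conj_mem w hw l)
      · refine le_normalizer_of_conj fun q hq y hy => ?_
        rw [conj_eq, ← commutatorElement_inv]
        exact mul_mem (inv_mem (Subgroup.mem_sup_right (hH.chief_comm hUW hUQ
          (sup_le (hKR.trans hRU) hUW.1.le hy) hq))) hy
    rcases hUW.2.2.2 _ hKn le_sup_right (sup_le (hKR.trans hRU) hUW.1.le) with h | h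
    · exact le_sup_left.trans h.le
    · exact absurd (le_antisymm hKR (hmin ⟨hK, hKR.trans hRU, h.ge⟩ hKR)) hne
  suffices hR : ∀ r ∈ R, ∀ a ∈ A, ∀ b ∈ A, ⁅b, ⁅a, r⁆⁆ ∈ W by
    obtain ⟨r, hr, w, hw, rfl⟩ := Subgroup.mem_sup_of_normal_right.1 (hRcov hx)
    refine (QuotientGroup.eq_one_iff _).1 ?_
    show QuotientGroup.mk' W ⁅a₂, ⁅a₁, r * w⁆⁆ = 1
    have hw1 : QuotientGroup.mk' W w = 1 := (QuotientGroup.eq_one_iff _).2 hw
    have := (QuotientGroup.eq_one_iff _).2 (hR r hr a₁ h₁ a₂ h₂)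
    change QuotientGroup.mk' W ⁅a₂, ⁅a₁, r⁆⁆ = 1 at this
    simp only [map_commutatorElement, map_mul, hw1, mul_one] at this ⊢
    exact this
  have hmemR : ∀ a ∈ A, ∀ r ∈ R, ⁅a, r⁆ ∈ R := fun a ha r hr => by
    rw [commutatorElement_def]
    exact mul_mem (conj_mem_of_normalizer (hRL (Subgroup.mem_sup_left ha)) hr) (inv_mem hr)
  intro r hr a ha b hb
  have hr1 : ⁅a, r⁆ ∈ R := hmemR a ha r hr
  have hr2 : ⁅b, ⁅a, r⁆⁆ ∈ R := hmemR b hb _ hr1
  set D := B ⊓ B' with hD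
  have hDQ : D ≤ Q := inf_le_left.trans d.BQ
  have hDL : L ≤ Subgroup.normalizer (D : Set X) :=
    sup_le (d.normalizes d'.VB) (by rw [hD, inf_comm]; exact d'.normalizes d.VB)
  set S := cT Q C C' with hS
  have hSQ : S ≤ Q := inf_le_left
  have hSL : L ≤ Subgroup.normalizer (S : Set X) :=
    normalizes_inf_centralizer (sup_le (d.swap.normalizes d'.VC)
      (by rw [inf_comm]; exact d'.swap.normalizes d.VC))
  have hZ₀n : Z₀.Normal := ⟨fun z hz g => by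
    rwa [Subgroup.mem_center_iff.1 (hH.Zc hz) g, mul_inv_cancel_right]⟩
  -- choice of the smaller factor
  have hfactor : ∀ Ks : Subgroup X, Ks ≤ Q → (∃ y ∈ R, ∃ k ∈ Ks, ⁅y, k⁆ ≠ 1) →
      ∃ Z Z' : Subgroup X, Cfsg.IsChiefFactor Z Z' ∧ Z ≤ W ∧
        (∀ y ∈ R, ∀ k ∈ Ks, ⁅y, k⁆ ∈ Z) ∧ ¬ ∀ y ∈ R, ∀ k ∈ Ks, ⁅y, k⁆ ∈ Z' := by
    intro Ks hKs hne
    obtain ⟨Z, hZ, hZmin⟩ := (Set.toFinite {Z : Subgroup X | Z.Normal ∧ Z ≤ W ∧
      ∀ y ∈ R, ∀ k ∈ Ks, ⁅y, k⁆ ∈ Z}).exists_minimal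
      ⟨W, hUW.2.2.1, le_rfl, fun y hy k hk => hH.chief_comm hUW hUQ (hRU hy) (hKs hk)⟩
    have hZne : Z ≠ ⊥ := fun h0 => by
      obtain ⟨y, hy, k, hk, hyk⟩ := hne
      exact hyk (Subgroup.mem_bot.1 (h0 ▸ hZ.2.2 y hy k hk))
    obtain ⟨Z', hZ', hZ'max⟩ := (Set.toFinite {N : Subgroup X | N.Normal ∧ N < Z}).exists_maximal
      ⟨⊥, inferInstance, hZne.bot_lt⟩
    refine ⟨Z, Z', ⟨hZ'.2, hZ.1, hZ'.1, fun N hN h1 h2 => ?_⟩, hZ.2.1, hZ.2.2,
      fun h => hZ'.2.not_ge (hZmin ⟨hZ'.1, hZ'.2.le.trans hZ.2.1, h⟩ hZ'.2.le)⟩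
    rcases h2.lt_or_eq with hlt | heq
    · exact Or.inl (le_antisymm (hZ'max ⟨hN, hlt⟩ h1) h1)
    · exact Or.inr heq
  have hcardW : Nat.card W < n := hn ▸ card_lt_card hUW.1
  by_cases hT : ∃ y ∈ R, ∃ k ∈ D, ⁅y, k⁆ ≠ 1
  · -- `R` not in `T`
    obtain ⟨Z, Z', hch, hZW, hin, hout⟩ := hfactor D hDQ hT
    haveI := hch.2.2.1
    have hZQ : Z ≤ Q := hZW.trans (hUW.1.le.trans hUQ)
    have hZ : ∀ z ∈ Z, ∀ q ∈ Q, ⁅z, q⁆ ∈ Z' := fun z hz q hq => hH.chief_comm hch hZQ hz hq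
    set π := QuotientGroup.mk' Z' with hπ
    have hKW : pairKer R D Z' ≤ W := hsmall _
      ((le_inf hRL hDL).trans (normalizer_le_pairKer _ _ _)) (fun y hy => hy.1)
      fun he => hout fun y hy k hk => (he.ge hy).2 k hk
    refine hKW ⟨hr2, fun k hk => (QuotientGroup.eq_one_iff _).1 ?_⟩
    show π ⁅⁅b, ⁅a, r⁆⁆, k⁆ = 1
    -- equivariance
    have step : ∀ c ∈ A, ∀ y ∈ R, π ⁅⁅c, y⁆, k⁆ = ⁅π c, π ⁅y, k⁆⁆ := by
      intro c hc y hy
      have e1 : π ⁅c * y * c⁻¹, k⁆ = π c * π ⁅y, k⁆ * (π c)⁻¹ := by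
        have e := conj_comm π c y (c⁻¹ * k * c)
        rw [show c * (c⁻¹ * k * c) * c⁻¹ = k by group] at e
        rw [e, inv_conj_eq, hH.comm_right (hRQ hy) (d.moveB _ (inv_mem hc) k hk.1) (hDQ hk)]
      have e2 := mul_left hZ (hRQ (hmemR c hc y hy)) (hDQ hk) (hin y hy k hk)
      rw [← conj_eq, e1] at e2
      rw [commutatorElement_def (π c), e2, mul_inv_cancel_right]
    rw [step b hb _ hr1, step a ha r hr, ← map_commutatorElement, ← map_commutatorElement]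
    exact (QuotientGroup.eq_one_iff _).2
      (ih _ (lt_of_le_of_lt (Subgroup.card_le_of_le hZW) hcardW) Z Z' hch hZQ a ha b hb _
        (hin r hr k hk) rfl)
  push Not at hT
  have hRT : R ≤ cT Q B B' := fun y hy => ⟨hRQ hy, Subgroup.mem_centralizer_iff.2 fun k hk =>
    (commutatorElement_eq_one_iff_commute.1 (hT y hy k hk)).symm⟩
  by_cases hRS : ∃ y ∈ R, ∃ k ∈ S, ⁅y, k⁆ ≠ 1
  swap
  · -- `R` centralises `S`
    push Not at hRS
    have hRC : ∀ y ∈ R, y ∈ C := fun y hy => (d.cen_eq hH.QJ).le ⟨hH.QJ (hRQ hy),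
      Subgroup.mem_centralizer_iff.2 fun e he =>
        (commutatorElement_eq_one_iff_commute.1 (hRS y hy e (d.swap.mem_cT he))).symm⟩
    have hq : ⁅b, ⁅a, r⁆⁆ ∈ Z₀ := hC2 a ha b hb r (hRC r hr)
    by_cases hle : R ≤ Z₀
    · have e1 : ⁅a, r⁆ = 1 := commutatorElement_eq_one_iff_commute.2
        (Subgroup.mem_center_iff.1 (hH.Zc (hle hr)) a)
      rw [e1, commutatorElement_one_right]
      exact one_mem W
    · exact hsmall (R ⊓ Z₀) (le_normalizer_of_conj fun l hl y hy =>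
        ⟨conj_mem_of_normalizer (hRL hl) hy.1, hZ₀n.conj_mem y hy.2 l⟩) inf_le_left
        (fun he => hle (he.ge.trans inf_le_right)) ⟨hr2, hq⟩
  -- `R` acts nontrivially on `S`
  obtain ⟨Z, Z', hch, hZW, hin, hout⟩ := hfactor S hSQ hRS
  haveI := hch.2.1
  haveI := hch.2.2.1
  have hZQ : Z ≤ Q := hZW.trans (hUW.1.le.trans hUQ)
  have hZ : ∀ z ∈ Z, ∀ q ∈ Q, ⁅z, q⁆ ∈ Z' := fun z hz q hq => hH.chief_comm hch hZQ hz hq
  set π := QuotientGroup.mk' Z' with hπ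
  set Rh := pairKer (cT Q B B') S Z with hRh
  have hRR : R ≤ Rh := fun y hy => ⟨hRT hy, hin y hy⟩
  have hsplit : ∀ t ∈ Rh, ∃ c ∈ C, ∃ c' ∈ C', c ∈ Rh ∧ c' ∈ Rh ∧ c * c' = t := by
    intro t ht
    obtain ⟨c, hc, c', hc', he⟩ := d.dec hH.QJ d' ht.1.1 (Subgroup.mem_centralizer_iff.1 ht.1.2)
    obtain ⟨h3, h4⟩ := d.rhat_dec hH.QJ d' ht hc hc' he
    exact ⟨c, hc, c', hc', h3, h4, he⟩
  have hsplitS : ∀ s ∈ S, ∃ e ∈ B, ∃ e' ∈ B', e * e' = s := fun s hs =>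
    d.swap.dec hH.QJ d'.swap hs.1 (Subgroup.mem_centralizer_iff.1 hs.2)
  have hBS : ∀ e ∈ B, e ∈ S := fun e he => d.swap.mem_cT he
  have hBS' : ∀ e ∈ B', e ∈ S := fun e he => d'.swap.mem_cT' he
  have f_one : ∀ c ∈ C, ∀ e ∈ B, π ⁅c, e⁆ = 1 := fun c hc e he => by
    rw [commutatorElement_eq_one_iff_commute.2 (d.comm e he c hc).symm, map_one]
  have f_one' : ∀ c ∈ C', ∀ e ∈ B', π ⁅c, e⁆ = 1 := fun c hc e he => by
    rw [commutatorElement_eq_one_iff_commute.2 (d'.comm e he c hc).symm, map_one]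
  have hfix : Z ≤ pairKer Z ⁅A, A'⁆ Z' := by
    set F := pairKer Z ⁅A, A'⁆ Z' with hF
    have hZ'F : Z' ≤ F := fun z hz => ⟨hch.1.le hz, fun k _ => Subgroup.commutator_le_left Z' ⊤
      (Subgroup.commutator_mem_commutator hz (Subgroup.mem_top k))⟩
    have hFn : F.Normal := by
      refine Subgroup.normalizer_eq_top_iff.1 (top_le_iff.1 (hgen.ge.trans (sup_le ?_ ?_)))
      · refine le_trans (le_inf ((Subgroup.normalizer_eq_top (H := Z)).ge.trans' le_top) ?_)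
          (normalizer_le_pairKer _ _ _)
        exact commutator_normalized A A'
      · refine le_normalizer_of_conj fun q hq z hz => ?_
        rw [conj_eq, ← commutatorElement_inv]
        exact mul_mem (inv_mem (hZ'F (hZ z hz.1 q hq))) hz
    rcases hch.2.2.2 F hFn hZ'F (fun z hz => hz.1) with h | h
    · exfalso
      refine hout fun y hy s hs => (QuotientGroup.eq_one_iff _).1 ?_
      show π ⁅y, s⁆ = 1
      obtain ⟨c, hc, c', hc', hcR, hc'R, rfl⟩ := hsplit y (hRR hy)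
      obtain ⟨e, he, e', he', rfl⟩ := hsplitS s hs
      have k1 : π ⁅c', e⁆ = 1 := (QuotientGroup.eq_one_iff _).2
        (h.le (hH.fixed_gen d d' hZ hc' hc'R he))
      have k2 : π ⁅c, e'⁆ = 1 := (QuotientGroup.eq_one_iff _).2 (h.le (by
        have hcR' : c ∈ pairKer (cT Q B' B) (cT Q C' C) Z := by
          rwa [show cT Q B' B = cT Q B B' by rw [cT, cT, inf_comm B' B],
            show cT Q C' C = S by rw [hS, cT, cT, inf_comm C' C]]
        have := hH.fixed_gen d' d hZ hc hcR' he'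
        rwa [Subgroup.commutator_comm A' A] at this))
      rw [mul_right hZ (d.BQ he) ((mul_mem hcR hc'R).2 e' (hBS' e' he')),
        mul_left hZ hcR.1.1 (d.BQ he) (hc'R.2 e (hBS e he)),
        mul_left hZ hcR.1.1 (d'.BQ he') (hc'R.2 e' (hBS' e' he')),
        f_one c hc e he, f_one' c' hc' e' he', k1, k2, one_mul, one_mul]
    · exact h.ge
  have htA : Z ≤ pairKer Z A Z' := hH.fix_triv hAp hgen hch hZQ hfix
  -- equivariance
  have hequiv : ∀ c ∈ A, ∀ t ∈ Rh, ∀ s ∈ S, π ⁅c * t * c⁻¹, s⁆ = π ⁅t, c⁻¹ * s * c⁆ := by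
    intro c hc t ht s hs
    have hs' : c⁻¹ * s * c ∈ S := by
      simpa using conj_mem_of_normalizer (hSL (inv_mem (Subgroup.mem_sup_left hc))) hs
    have e := conj_comm π c t (c⁻¹ * s * c)
    rw [show c * (c⁻¹ * s * c) * c⁻¹ = s by group] at e
    have hc' : Commute (π ⁅t, c⁻¹ * s * c⁆) (π c) := by
      rw [← commutatorElement_eq_one_iff_commute, ← map_commutatorElement]
      exact (QuotientGroup.eq_one_iff _).2 ((htA (ht.2 _ hs')).2 c hc)
    rw [e, ← hc'.eq, mul_inv_cancel_right]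
  have hdB : ∀ c ∈ A, ∀ t ∈ R, ∀ e ∈ B, π ⁅⁅c, t⁆, e⁆ = 1 := by
    intro c hc t ht e he
    have h1 := mul_left hZ (hRQ (hmemR c hc t ht)) (d.BQ he) (hin t ht e (hBS e he))
    rw [← conj_eq, hequiv c hc t (hRR ht) e (hBS e he), inv_conj_eq,
      hH.comm_right (hRQ ht) (d.moveB _ (inv_mem hc) e he) (d.BQ he)] at h1
    exact right_eq_mul.1 h1
  have hdB' : ∀ c ∈ A, ∀ t ∈ R, ∀ e' ∈ B', ∃ β ∈ B, π ⁅⁅c, t⁆, e'⁆ = π ⁅t, β⁆ := by
    intro c hc t ht e' he'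
    have hs' : c⁻¹ * e' * c ∈ S := by
      simpa using conj_mem_of_normalizer (hSL (inv_mem (Subgroup.mem_sup_left hc))) (hBS' e' he')
    obtain ⟨β, hβ, β', hβ', hbe⟩ := hsplitS _ hs'
    refine ⟨β, hβ, ?_⟩
    obtain ⟨k, hk, k', hk', hkR, hk'R, hke⟩ := hsplit t (hRR ht)
    have hkey : π ⁅t, β'⁆ = π ⁅t, e'⁆ := by
      have q1 := mul_left hZ hkR.1.1 (d'.BQ hβ') (hk'R.2 β' (hBS' β' hβ'))
      have q2 := mul_left hZ hkR.1.1 (d'.BQ he') (hk'R.2 e' (hBS' e' he'))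
      rw [hke, f_one' k' hk' β' hβ', mul_one] at q1
      rw [hke, f_one' k' hk' e' he', mul_one] at q2
      have q3 := mul_right hZ (t := k) (d.BQ hβ) (hkR.2 β' (hBS' β' hβ'))
      rw [hbe, f_one k hk β hβ, one_mul, ← hequiv c hc k hkR e' (hBS' e' he'), conj_eq,
        hH.comm_left (d.CQ hk) (d.moveC c hc k hk) (d'.BQ he')] at q3
      rw [q1, q2, q3]
    have h1 := mul_left hZ (hRQ (hmemR c hc t ht)) (d'.BQ he') (hin t ht e' (hBS' e' he'))
    have h2 := mul_right hZ (t := t) (d.BQ hβ) (hin t ht β' (hBS' β' hβ'))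
    rw [hbe] at h2
    rw [← conj_eq, hequiv c hc t (hRR ht) e' (hBS' e' he'), h2, hkey] at h1
    exact (mul_right_cancel h1).symm
  have hKW : pairKer R S Z' ≤ W := hsmall _
    ((le_inf hRL hSL).trans (normalizer_le_pairKer _ _ _)) (fun y hy => hy.1)
    fun he => hout fun y hy k hk => (he.ge hy).2 k hk
  refine hKW ⟨hr2, fun s hs => (QuotientGroup.eq_one_iff _).1 ?_⟩
  show π ⁅⁅b, ⁅a, r⁆⁆, s⁆ = 1
  obtain ⟨e, he, e', he', rfl⟩ := hsplitS s hs
  rw [mul_right hZ (d.BQ he) (hin _ hr2 e' (hBS' e' he')), hdB b hb _ hr1 e he, one_mul]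
  obtain ⟨β, hβ, hβe⟩ := hdB' b hb _ hr1 e' he'
  rw [hβe]
  exact hdB a ha r hr β hβ

/-- Either `Ab(J)` is normal or some element of `J ∖ Q` is quadratic on the chief factors in `Q`. -/
theorem result : (Cfsg.inducedFunctor cdAb J).Normal ∨
    ∃ u ∈ J, u ∉ Q ∧ ∀ U W : Subgroup X, Cfsg.IsChiefFactor U W → U ≤ Q →
      Cfsg.iterCommutator U (Subgroup.zpowers u) 2 ≤ W := by
  classical
  haveI := hH.Qn
  by_cases hall : ∀ A ≤ J, IsMulCommutative A →
      Cfsg.maxCentralizerProduct J ≤ mJ J A → A ≤ Q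
  · exact Or.inl (hH.normal_of_le hall)
  push Not at hall
  obtain ⟨A, hAJ, hAc, hA, hAQ⟩ := hall
  obtain ⟨hAQJ, B, C, d, hC2⟩ := hH.exists_data hAJ hAc hA hAQ
  obtain ⟨g, hg⟩ := hH.gen
  have hmove : ∀ P : Subgroup X, (∀ a ∈ A, ∀ x ∈ P, ⁅a, x⁆ ∈ V) →
      ∀ a ∈ cj g A, ∀ x ∈ cj g P, ⁅a, x⁆ ∈ V := by
    rintro P h _ ⟨a, ha, rfl⟩ _ ⟨x, hx, rfl⟩
    rw [← map_commutatorElement]
    exact hH.Vn.conj_mem _ (h a ha x hx) g
  have d' : Data Q J V (cj g A) (cj g B) (cj g C) :=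
    { BQ := (cj_mono g d.BQ).trans (cj_eq_of_normal g Q).le
      CQ := (cj_mono g d.CQ).trans (cj_eq_of_normal g Q).le
      VB := (haveI := hH.Vn; (cj_eq_of_normal g V).ge).trans (cj_mono g d.VB)
      VC := (haveI := hH.Vn; (cj_eq_of_normal g V).ge).trans (cj_mono g d.VC)
      comm := by
        rintro _ ⟨b, hb, rfl⟩ _ ⟨c, hc, rfl⟩
        rw [← map_mul, ← map_mul, d.comm b hb c hc]
      big := by rw [card_cj, card_cj]; exact d.big
      moveB := hmove B d.moveB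
      moveC := hmove C d.moveC }
  have hgen : A ⊔ cj g A ⊔ Q = ⊤ := by
    refine top_le_iff.1 (hg.ge.trans (sup_le ?_ ?_))
    · rw [← hAQJ]
      exact sup_le (le_sup_left.trans le_sup_left) le_sup_right
    · rw [← hAQJ]
      show (A ⊔ Q).map _ ≤ _
      rw [Subgroup.map_sup]
      exact sup_le (le_sup_right.trans le_sup_left) ((cj_eq_of_normal g Q).le.trans le_sup_right)
  obtain ⟨u, huA, huQ⟩ := SetLike.not_le_iff_exists.1 hAQ
  refine Or.inr ⟨u, hAJ huA, huQ, fun U W hUW hUQ => ?_⟩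
  haveI := hUW.2.1
  haveI := hUW.2.2.1
  let Y : Subgroup X :=
    { carrier := {y | y ∈ U ∧ ∀ j : ℤ, ⁅y, u ^ j⁆ ∈ W}
      one_mem' := ⟨one_mem U, fun j => by rw [commutatorElement_one_left]; exact one_mem W⟩
      mul_mem' := fun {y z} hy hz => ⟨mul_mem hy.1 hz.1, fun j => by
        rw [show ⁅y * z, u ^ j⁆ = y * ⁅z, u ^ j⁆ * y⁻¹ * ⁅y, u ^ j⁆ by
          simp only [commutatorElement_def]; group]
        exact mul_mem (hUW.2.2.1.conj_mem _ (hz.2 j) y) (hy.2 j)⟩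
      inv_mem' := fun {y} hy => ⟨inv_mem hy.1, fun j => by
        rw [show ⁅y⁻¹, u ^ j⁆ = y⁻¹ * ⁅y, u ^ j⁆⁻¹ * y⁻¹⁻¹ by
          simp only [commutatorElement_def]; group]
        exact hUW.2.2.1.conj_mem _ (inv_mem (hy.2 j)) _⟩ }
  have h1 : ⁅U, Subgroup.zpowers u⁆ ≤ Y := by
    rw [Subgroup.commutator_le]
    rintro x hx _ ⟨i, rfl⟩
    refine ⟨Subgroup.commutator_le_left U ⊤
      (Subgroup.commutator_mem_commutator hx (Subgroup.mem_top _)), fun j => ?_⟩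
    have hk := hH.claim d d' hC2 (hAQJ ▸ hH.Jp) hgen U W hUW hUQ _ (zpow_mem huA i) _
      (zpow_mem huA j) x hx
    rw [show ⁅⁅x, u ^ i⁆, u ^ j⁆ = ⁅x, u ^ i⁆ * ⁅u ^ j, ⁅u ^ i, x⁆⁆ * ⁅x, u ^ i⁆⁻¹ by
      simp only [commutatorElement_def]; group]
    exact hUW.2.2.1.conj_mem _ hk _
  show ⁅⁅U, Subgroup.zpowers u⁆, Subgroup.zpowers u⁆ ≤ W
  rw [Subgroup.commutator_le]
  rintro y hy _ ⟨j, rfl⟩
  exact (h1 hy).2 j

end Hyp

end Cfsg.Agent.CF.CDQuad
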